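import Mathlib
import Cfsg.Prelude.Def_JComponents
import Cfsg.Agent.Lib.Helper71.JC.JCInst
import Cfsg.Agent.Lib.Helper81.KS12.S2950Core
import Cfsg.Agent.Lib.Helper81.KS12.JCompConj
import Cfsg.Agent.Lib.Helper85.KS12.S2949Core
import Cfsg.Agent.Lib.Helper11.ThompsonSylow

set_option autoImplicit false

/-!
# The W-system of the J(T)-components inside a member of `jOvergroups T` (helper76, KS12)

`wsys_basic` and `wsys_perm` with exactly the statements requested in helper34's note 2769.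
-/

namespace Cfsg.Agent.Lib.Helper76.KS12

open Cfsg
open Cfsg.Agent.Lib.Helper71.JC

universe u
variable {G : Type u} [Group G]

/-- three conjugates of a nontrivial element of a four-group under a fixed-point-free element
whose square is also fixed-point-free exhaust the nontrivial elements. -/
theorem fpf_transitive {W : Subgroup G} (hW4 : Nat.card W = 4) {d : G}
    (hdW : ∀ w ∈ W, d * w * d⁻¹ ∈ W)
    (hfp : ∀ w ∈ W, d * w * d⁻¹ = w → w = 1)
    (hfp2 : ∀ w ∈ W, (d * d) * w * (d * d)⁻¹ = w → w = 1)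
    {w w' : G} (hw : w ∈ W) (hw' : w' ∈ W) (hw1 : w ≠ 1) (hw'1 : w' ≠ 1) :
    w' = w ∨ w' = d * w * d⁻¹ ∨ w' = (d * d) * w * (d * d)⁻¹ := by
  have h1 : d * w * d⁻¹ ∈ W := hdW w hw
  have h2 : (d * d) * w * (d * d)⁻¹ ∈ W := by
    have := hdW _ h1
    have e : (d * d) * w * (d * d)⁻¹ = d * (d * w * d⁻¹) * d⁻¹ := by group
    rw [e]; exact this
  have n1 : d * w * d⁻¹ ≠ 1 := by
    intro h
    apply hw1
    have : w = d⁻¹ * (d * w * d⁻¹) * d := by group
    rw [this, h]; group
  have n2 : (d * d) * w * (d * d)⁻¹ ≠ 1 := by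
    intro h
    apply hw1
    have : w = (d * d)⁻¹ * ((d * d) * w * (d * d)⁻¹) * (d * d) := by group
    rw [this, h]; group
  have n12 : w ≠ d * w * d⁻¹ := fun h => hw1 (hfp w hw h.symm)
  have n13 : w ≠ (d * d) * w * (d * d)⁻¹ := fun h => hw1 (hfp2 w hw h.symm)
  have n23 : d * w * d⁻¹ ≠ (d * d) * w * (d * d)⁻¹ := by
    intro h
    apply n1
    apply hfp _ h1
    have e : d * (d * w * d⁻¹) * d⁻¹ = (d * d) * w * (d * d)⁻¹ := by group
    rw [e]; exact h.symm
  rcases four_enum hW4 hw h1 h2 hw1 n1 n2 n12 n13 n23 w' hw' with h | h | h | h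
  · exact absurd h hw'1
  · exact Or.inl h
  · exact Or.inr (Or.inl h)
  · exact Or.inr (Or.inr h)

/-- The W-system of the `J(T)`-components inside `L ∈ jOvergroups T`. -/
theorem wsys_basic [Finite G] (hComm : Cfsg.Agent.Lib.Helper81.KS12.JCompCentralize G)
    {T L : Subgroup G} (hT : IsPGroup 2 T) (hT1 : T ≠ ⊥) (hLT : L ∈ jOvergroups T) :
    (∀ i : {K : Subgroup G // IsJComponent T K ∧ K ≤ L}, Nat.card ↥(wOf i.1) = 4) ∧
    (∀ i : {K : Subgroup G // IsJComponent T K ∧ K ≤ L}, ∀ w ∈ wOf i.1, w * w = 1) ∧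
    (∀ i j : {K : Subgroup G // IsJComponent T K ∧ K ≤ L}, i ≠ j →
      ∀ a ∈ wOf i.1, ∀ b ∈ wOf j.1, a * b = b * a) ∧
    (∀ i j : {K : Subgroup G // IsJComponent T K ∧ K ≤ L}, i ≠ j →
      ∀ k ∈ j.1, ∀ w ∈ wOf i.1, k * w * k⁻¹ = w) ∧
    (∀ i : {K : Subgroup G // IsJComponent T K ∧ K ≤ L}, ∀ k ∈ i.1, ∀ w ∈ wOf i.1,
      k * w * k⁻¹ ∈ wOf i.1) ∧
    (∀ i : {K : Subgroup G // IsJComponent T K ∧ K ≤ L}, ∀ w ∈ wOf i.1, ∀ w' ∈ wOf i.1,
      w ≠ 1 → w' ≠ 1 → ∃ k ∈ i.1, k * w * k⁻¹ = w') ∧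
    iSupIndep (fun i : {K : Subgroup G // IsJComponent T K ∧ K ≤ L} => wOf i.1) := by
  have hcen : ∀ i j : {K : Subgroup G // IsJComponent T K ∧ K ≤ L}, i ≠ j →
      ∀ k ∈ j.1, ∀ w ∈ wOf i.1, k * w * k⁻¹ = w := by
    intro i j hij k hk w hw
    have h1 := hComm T L i.1 j.1 hT hT1 hLT i.2.1 j.2.1 i.2.2 j.2.2
      (fun h => hij (Subtype.ext h))
    have h2 := Subgroup.mem_centralizer_iff.mp (h1 hk) w hw
    calc k * w * k⁻¹ = w * k * k⁻¹ := by rw [h2]
      _ = w := by group
  have hnorm : ∀ i : {K : Subgroup G // IsJComponent T K ∧ K ≤ L}, ∀ k ∈ i.1, ∀ w ∈ wOf i.1,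
      k * w * k⁻¹ ∈ wOf i.1 := by
    intro i k hk w hw
    have c := cfg_of_isJComponent hT i.2.1
    exact conj_mem_of_mem_normalizer (c.hKW hk) hw
  refine ⟨fun i => i.2.1.2.2.2.2.1, fun i => i.2.1.2.2.2.2.2, ?_, hcen, hnorm, ?_, ?_⟩
  · intro i j hij a ha b hb
    have hbK : b ∈ j.1 := Cfsg.Agent.Lib.Helper81.KS12.wOf_le j.1 hb
    have h := hcen i j hij b hbK a ha
    calc a * b = (b * a * b⁻¹) * b := by rw [h]
      _ = b * a := by group
  · intro i w hw w' hw' hw1 hw'1
    have c := cfg_of_isJComponent hT i.2.1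
    obtain ⟨d, hd, hdR⟩ := c.exists_d
    have hq := q3 c.hRK c.hKR c.hidx hd hdR
    have hd2R : d * d ∉ pCoreOf 2 i.1 := by
      intro h
      apply hdR
      have h3 : d = d ^ 3 * (d * d)⁻¹ := by group
      rw [h3]
      exact Subgroup.mul_mem _ hq.1 (Subgroup.inv_mem _ h)
    have hd2K : d * d ∈ i.1 := Subgroup.mul_mem _ hd hd
    rcases fpf_transitive c.hW4 (fun x hx => hnorm i d hd x hx)
        (fun x hx h => c.hfp d hd hdR x hx h)
        (fun x hx h => c.hfp (d * d) hd2K hd2R x hx h) hw hw' hw1 hw'1 with h | h | h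
    · exact ⟨1, Subgroup.one_mem _, by rw [h]; group⟩
    · exact ⟨d, hd, h.symm⟩
    · exact ⟨d * d, hd2K, h.symm⟩
  · intro i
    rw [Subgroup.disjoint_def]
    intro x hx hx'
    have c := cfg_of_isJComponent hT i.2.1
    obtain ⟨d, hd, hdR⟩ := c.exists_d
    have hle : (⨆ (j : {K : Subgroup G // IsJComponent T K ∧ K ≤ L}) (_ : j ≠ i), wOf j.1) ≤
        Subgroup.centralizer ({d} : Set G) := by
      refine iSup₂_le (fun j hji => ?_)
      intro w hw
      rw [Subgroup.mem_centralizer_iff]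
      intro y hy
      rw [Set.mem_singleton_iff] at hy
      subst hy
      have h := hcen j i hji y hd w hw
      calc y * w = (y * w * y⁻¹) * y := by group
        _ = w * y := by rw [h]
    have h1 := Subgroup.mem_centralizer_iff.mp (hle hx') d (Set.mem_singleton d)
    apply c.hfp d hd hdR x hx
    calc d * x * d⁻¹ = x * d * d⁻¹ := by rw [h1]
      _ = x := by group

/-- `L` permutes the four-groups `W_K` of its `J(T)`-components. -/
theorem wsys_perm [Finite G] (hComm : Cfsg.Agent.Lib.Helper81.KS12.JCompCentralize G)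
    {T L : Subgroup G} (hT : IsPGroup 2 T) (hT1 : T ≠ ⊥) (hLT : L ∈ jOvergroups T)
    (hGen : Cfsg.Agent.Lib.Helper85.KS12.GenByJComponents T L) :
    ∀ l ∈ L, ∀ i : {K : Subgroup G // IsJComponent T K ∧ K ≤ L},
      ∃ j : {K : Subgroup G // IsJComponent T K ∧ K ≤ L},
        (wOf i.1).map (MulAut.conj l).toMonoidHom = wOf j.1 := by
  classical
  -- the subgroup of elements permuting the family (with their inverses)
  let P : Subgroup G :=
    { carrier := {l | (∀ i : {K : Subgroup G // IsJComponent T K ∧ K ≤ L},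
          ∃ j : {K : Subgroup G // IsJComponent T K ∧ K ≤ L},
            (wOf i.1).map (MulAut.conj l).toMonoidHom = wOf j.1) ∧
        (∀ i : {K : Subgroup G // IsJComponent T K ∧ K ≤ L},
          ∃ j : {K : Subgroup G // IsJComponent T K ∧ K ≤ L},
            (wOf i.1).map (MulAut.conj l⁻¹).toMonoidHom = wOf j.1)}
      mul_mem' := by
        rintro a b ⟨ha, ha'⟩ ⟨hb, hb'⟩
        constructor
        · intro i
          obtain ⟨j, hj⟩ := hb i
          obtain ⟨k, hk⟩ := ha j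
          refine ⟨k, ?_⟩
          rw [← hk, ← hj, Subgroup.map_map]
          congr 1
          ext x
          simp [MulAut.conj_apply, mul_assoc]
        · intro i
          obtain ⟨j, hj⟩ := ha' i
          obtain ⟨k, hk⟩ := hb' j
          refine ⟨k, ?_⟩
          rw [← hk, ← hj, Subgroup.map_map]
          congr 1
          ext x
          simp [mul_assoc]
      one_mem' := by
        constructor
        · intro i
          refine ⟨i, ?_⟩
          ext x
          simp
        · intro i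
          refine ⟨i, ?_⟩
          ext x
          simp
      inv_mem' := by
        rintro a ⟨ha, ha'⟩
        refine ⟨ha', ?_⟩
        intro i
        rw [inv_inv]
        exact ha i }
  have hmemP : ∀ l : G, l ∈ P →
      ∀ i : {K : Subgroup G // IsJComponent T K ∧ K ≤ L},
        ∃ j : {K : Subgroup G // IsJComponent T K ∧ K ≤ L},
          (wOf i.1).map (MulAut.conj l).toMonoidHom = wOf j.1 := fun l hl => hl.1
  -- components normalize every `W_i`
  have hKn : ∀ K' : Subgroup G, IsJComponent T K' → K' ≤ L →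
      ∀ i : {K : Subgroup G // IsJComponent T K ∧ K ≤ L},
        K' ≤ Subgroup.normalizer (wOf i.1 : Set G) := by
    intro K' hK' hK'L i
    by_cases h : i.1 = K'
    · have c := cfg_of_isJComponent hT i.2.1
      rw [← h]; exact c.hKW
    · exact (hComm T L i.1 K' hT hT1 hLT i.2.1 hK' i.2.2 hK'L h).trans
        (Subgroup.centralizer_le_normalizer _)
  have hK : ∀ K' : Subgroup G, IsJComponent T K' → K' ≤ L → K' ≤ P := by
    intro K' hK' hK'L l hl
    constructor
    · intro i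
      exact ⟨i, Cfsg.Agent.Lib.Helper11.map_conj_eq_of_mem_normalizer (hKn K' hK' hK'L i hl)⟩
    · intro i
      exact ⟨i, Cfsg.Agent.Lib.Helper11.map_conj_eq_of_mem_normalizer
        (hKn K' hK' hK'L i (Subgroup.inv_mem _ hl))⟩
  have hNJ : ∀ l : G, l ∈ L → l ∈ Subgroup.normalizer (thompsonSubgroupOf 2 T : Set G) →
      ∀ i : {K : Subgroup G // IsJComponent T K ∧ K ≤ L},
        ∃ j : {K : Subgroup G // IsJComponent T K ∧ K ≤ L},
          (wOf i.1).map (MulAut.conj l).toMonoidHom = wOf j.1 := by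
    intro l hlL hlN i
    refine ⟨⟨i.1.map (MulAut.conj l).toMonoidHom,
      Cfsg.Agent.Lib.Helper81.KS12.isJComponent_map_conj i.2.1 hlN, ?_⟩, ?_⟩
    · rintro _ ⟨x, hx, rfl⟩
      have hxL := i.2.2 hx
      simp only [MulEquiv.coe_toMonoidHom, MulAut.conj_apply]
      exact L.mul_mem (L.mul_mem hlL hxL) (L.inv_mem hlL)
    · exact (Cfsg.Agent.Lib.Helper81.KS12.wOf_map (MulAut.conj l) i.1).symm
  have hN : L ⊓ Subgroup.normalizer (thompsonSubgroupOf 2 T : Set G) ≤ P := by
    intro l hl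
    obtain ⟨hlL, hlN⟩ := Subgroup.mem_inf.mp hl
    exact ⟨hNJ l hlL hlN, hNJ l⁻¹ (L.inv_mem hlL) (Subgroup.inv_mem _ hlN)⟩
  have hLP : L ≤ P := by
    refine hGen.trans (sup_le (sSup_le ?_) hN)
    rintro K' ⟨hK', hK'L⟩
    exact hK K' hK' hK'L
  intro l hl
  exact hmemP l (hLP hl)

end Cfsg.Agent.Lib.Helper76.KS12
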